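import Cfsg.Agent.Cam.Q2.Iface
import Cfsg.Agent.Cam.Q2.NFTab
import Cfsg.Agent.Cam.Ex.Cb1

/-!
# `E₈(2)`: a plane of standard characters kills no root (helper69)
-/

set_option autoImplicit false
set_option linter.unusedVariables false
set_option maxRecDepth 100000

namespace Cfsg.Agent.Cam.Q2.L3

open Cfsg Cfsg.Lie Cfsg.Agent.Cam.Ex Cfsg.Agent.Cam.Ex.Cb Cfsg.Agent.Cam.Q2.NF

/-- the points of the projective line -/
def pts : List (ℕ × ℕ) := [(0, 1), (1, 0), (1, 1), (1, 2), (1, 3), (1, 4), (1, 5), (1, 6)]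

theorem pts_ok : ∀ p ∈ pts, p.1 < 7 ∧ p.2 < 7 ∧ (p.1 ≠ 0 ∨ p.2 ≠ 0) := by decide

theorem one_elt : ∀ x y : ZMod 7, (pts.map fun p => if p.1 • x + p.2 • y = 0 then 1 else 0).sum =
    1 + 7 * if x = 0 ∧ y = 0 then 1 else 0 := by decide +kernel

theorem count {α : Type} (f g : α → ZMod 7) (T : List α) :
    (pts.map fun p => T.countP fun e => decide (p.1 • f e + p.2 • g e = 0)).sum =
      T.length + 7 * T.countP fun e => decide (f e = 0 ∧ g e = 0) := by
  induction T with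
  | nil => rfl
  | cons e T ih =>
    have h := one_elt (f e) (g e)
    simp only [List.countP_cons, decide_eq_true_eq, List.length_cons, List.sum_map_add, ih, h]
    ring

theorem std_count {φ : Lat 8 →+ ZMod 7} (h : Std φ) : (dE8.T.countP fun e => decide (φ (toF 8 e.b) = 0)) = 15 := by
  obtain ⟨w, hw⟩ := h
  have h1 := tabE8.ncard_eq φ (P := fun e => decide (φ (toF 8 e.b) = 0)) fun e _ => decide_eq_true_iff
  have h2 := tabE8.ncard_eq (cw tE8 φ w) (P := fun e => zr 7 (Int.add (gt e.b 0) (gt e.b 5))) fun e _ => by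
    rw [cw_apply, hw, zr_iff, ZMod.intCast_zmod_eq_zero_iff_dvd]
    rfl
  rw [ncard_cw, h1, cnt_eq, show cnt (fun e => zr 7 (Int.add (gt e.b 0) (gt e.b 5))) dE8.T = 15 by decide +kernel] at h2
  omega

/-- **BoxL3** -/
theorem boxL3 : BoxL3 := by
  intro A B h a ha hA hB
  have h1 := count (fun e => A (toF 8 e.b)) (fun e => B (toF 8 e.b)) dE8.T
  have h0 : ∀ p ∈ pts, (dE8.T.countP fun e => decide (p.1 • A (toF 8 e.b) + p.2 • B (toF 8 e.b) = 0)) = 15 := fun p hp =>
    std_count (h p.1 p.2 (pts_ok p hp).1 (pts_ok p hp).2.1 (pts_ok p hp).2.2)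
  rw [List.map_congr_left h0, show dE8.T.length = 120 by decide +kernel] at h1
  have h2 : 0 < dE8.T.countP fun e => decide (A (toF 8 e.b) = 0 ∧ B (toF 8 e.b) = 0) := by
    obtain ⟨e, he, rfl | rfl⟩ := tabE8.sur a ha
    · exact List.countP_pos_iff.2 ⟨e, he, decide_eq_true ⟨hA, hB⟩⟩
    · rw [map_neg, neg_eq_zero] at hA hB
      exact List.countP_pos_iff.2 ⟨e, he, decide_eq_true ⟨hA, hB⟩⟩
  have h3 : (pts.map fun _ => 15).sum = 120 := rfl
  omega

end Cfsg.Agent.Cam.Q2.L3
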